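import Cfsg.Agent.Lib.Compute.Schur2.RuM.TCert

/-! # The multiplier of `Ru`: the rest of the certificate -/

set_option autoImplicit false
set_option maxRecDepth 1000000

namespace Cfsg.Agent.Lib.Compute.Schur2.RuM.T

open Cfsg Cfsg.Agent.Lib.Compute.SchurLin Cfsg.Agent.Lib.Compute.Schur2
open Cfsg.Agent.Lib.Compute.PermCert (allB)
open Cfsg.Agent.Lib.Compute.ToddCoxeterCore (allFrom)

theorem lblA : allFrom CC.chkLbl 8119 1 = true := by decide +kernel

theorem fin0 : allFrom (CC.chkFin (List.range CC.L)) 6000 0 = true := by decide +kernel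
theorem fin1 : allFrom (CC.chkFin (List.range CC.L)) 2120 6000 = true := by decide +kernel

theorem tT0 : ptsB 0 (fun i => allB (fun x => Nat.beq (CC.T x i) (c.t i x)) (nat_lit 8)) 6000 = true := by decide +kernel
theorem tT1 : ptsB 6000 (fun i => allB (fun x => Nat.beq (CC.T x i) (c.t i x)) (nat_lit 8)) 2120 = true := by decide +kernel

theorem treeA : allB c.treeCheck 8120 = true := by decide +kernel

theorem rulesA : Cfsg.Agent.Lib.Compute.ToddCoxeterPresented.rulesOK (2 * c.n) (invOf (2 * c.n)) (c.W.take 33) rT = true := by decide +kernel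

end Cfsg.Agent.Lib.Compute.Schur2.RuM.T
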