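import Cfsg.Agent.Lib.Compute.Schur2.RuM.TTab

/-! # The multiplier of `Ru`: the flips of the labels -/

set_option autoImplicit false
set_option maxRecDepth 1000000

namespace Cfsg.Agent.Lib.Compute.Schur2.RuM.T

open Cfsg Cfsg.Agent.Lib.Compute.SchurLin Cfsg.Agent.Lib.Compute.Schur2
open Cfsg.Agent.Lib.Compute.PermCert (allB)
open Cfsg.Agent.Lib.Compute.ToddCoxeterCore (allFrom)

theorem fl0 : ptsB 0 (fun i => allB (l.flipCheck i) (nat_lit 8)) 6000 = true := by decide +kernel
theorem fl1 : ptsB 6000 (fun i => allB (l.flipCheck i) (nat_lit 8)) 2120 = true := by decide +kernel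
end Cfsg.Agent.Lib.Compute.Schur2.RuM.T
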