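import Cfsg.Agent.Lib.Compute.Schur2.TitsT
import Cfsg.Agent.Lib.Compute.Schur2.RuM.TK
import Cfsg.Agent.Lib.Compute.Schur2.RuM.TF
import Cfsg.Agent.Lib.Compute.Schur2.RuM.TFl
import Cfsg.Agent.Lib.Compute.Schur2.RuM.TU0
import Cfsg.Agent.Lib.Compute.Schur2.RuM.TU1
import Cfsg.Agent.Lib.Compute.Schur2.RuM.TU2
import Cfsg.Agent.Lib.Compute.Schur2.RuM.TC0
import Cfsg.Agent.Lib.Compute.Schur2.RuM.TC1

/-!
# The table of `Ru` over `the Tits group`: the assembly of the checks
-/

set_option autoImplicit false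
set_option maxRecDepth 1000000

namespace Cfsg.Agent.Lib.Compute.Schur2.RuM.T

open Cfsg Cfsg.Agent.Lib.Compute.SchurLin Cfsg.Agent.Lib.Compute.Schur2
open Cfsg.Agent.Lib.Compute.PermCert (allB)
open Cfsg.Agent.Lib.Compute.ToddCoxeterCore (allFrom)

open Cfsg.Agent.Lib.Compute.ToddCoxeterPresented (allFrom_chain allFrom_nil allFrom_all)
open Cfsg.Agent.Lib.Compute.PermCert (allB_iff)

universe u

theorem allB_of_pts0 {f : ℕ → Bool} {n : ℕ} (h : ptsB 0 f n = true) : allB f n = true := by
  rw [allB_iff]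
  intro i hi
  have h3 := (allB_iff _ _).1 h i hi
  have h4 : Nat.add 0 i = i := Nat.zero_add i
  rwa [h4] at h3

theorem keysAll : ∀ k, 0 ≤ k → k < 73080 → CC.chkKey k = true :=
  (allFrom_chain (allFrom_chain (allFrom_chain (allFrom_nil CC.chkKey (nat_lit 0)) key0 (c := 26000) rfl) key1 (c := 52000) rfl) key2 (c := 73080) rfl)

theorem finAll : ∀ i, 0 ≤ i → i < 8120 → CC.chkFin (List.range CC.L) i = true :=
  (allFrom_chain (allFrom_chain (allFrom_nil (CC.chkFin (List.range CC.L)) (nat_lit 0)) fin0 (c := 6000) rfl) fin1 (c := 8120) rfl)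

theorem tAll : allB (fun i => allB (fun x => Nat.beq (CC.T x i) (c.t i x)) (nat_lit 8)) 8120 = true :=
  (allB_split (allB_of_pts0 tT0) tT1 (c := 8120) rfl)

/-- Soundness of the table. -/
theorem sound : TC.Sound.{u} c :=
  sound_of_parts (E := eE) (M := 73080) (Lbl := 8120) (Pd := eP) (rt := rT) (m := 33) (by decide +kernel) (by decide +kernel)
    (by decide +kernel) (allB_all treeA) rulesA keysAll (allFrom_all lblA rfl) finAll
    (fun i hi x hx => (allB_iff _ _).1 ((allB_iff _ _).1 tAll i hi) x hx)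

/-- The correspondence of relators with the inner relators. -/
def mp (k : ℕ) : ℕ := bif Nat.blt k 3 then k else Nat.succ k

theorem nestChk : nestB c TitsT.c mp = true := by decide +kernel

theorem hSB : SubBound.{u} c (TitsT.c.N * (TitsL.c.N * 13)) := subBound_nest TitsT.sound TitsT.hSB nestChk

theorem upAll : allB (fun i => allB (u.fedgeCheck2 24 16 pk rvR i) (Nat.mul 2 u.n)) u.N = true :=
  (allB_split (allB_split (allB_split (allB_split (allB_split (allB_split (allB_split (allB_split (allB_split (allB_split (allB_of_pts0 up0) up1 (c := 1600) rfl) up2 (c := 2400) rfl) up3 (c := 3200) rfl) up4 (c := 4000) rfl) up5 (c := 4800) rfl) up6 (c := 5600) rfl) up7 (c := 6400) rfl) up8 (c := 7200) rfl) up9 (c := 8000) rfl) up10 (c := 8120) rfl)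

theorem upChk : u.check = true :=
  UP.check_of_parts2 (B := 24) (b := 16) (P := pk) (R := rvR) (fun _ _ => rfl) (fun _ _ => rfl)
    (by decide +kernel) (by decide +kernel) (by decide +kernel) upAll

theorem tailChk : UP.tailCheck u d = true := by decide +kernel

theorem hnormC : normB c.n c.W = true := by decide +kernel

theorem hnormU : normB u.n u.W = true := by decide +kernel

theorem flAll : allB (fun i => allB (l.flipCheck i) (nat_lit 8)) 8120 = true :=
  (allB_split (allB_of_pts0 fl0) fl1 (c := 8120) rfl)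

theorem lcAll : allB (ptFast tl (nat_lit 8) (nat_lit 2) (nat_lit 3) (nat_lit 2) rs) 8120 = true :=
  (allB_split (allB_split (allB_split (allB_split (allB_split (allB_split (allB_split (allB_split (allB_split (allB_split (allB_split (allB_split (allB_split (allB_of_pts0 lc0) lc1 (c := 1200) rfl) lc2 (c := 1800) rfl) lc3 (c := 2400) rfl) lc4 (c := 3000) rfl) lc5 (c := 3600) rfl) lc6 (c := 4200) rfl) lc7 (c := 4800) rfl) lc8 (c := 5400) rfl) lc9 (c := 6000) rfl) lc10 (c := 6600) rfl) lc11 (c := 7200) rfl) lc12 (c := 7800) rfl) lc13 (c := 8120) rfl)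

theorem hrs : ∀ k < l.nrel, (l.W.getD k [], l.en 0 k) ∈ rs := by decide +kernel

theorem lcChk : l.check = true :=
  LC.check_of_fast (E := tl) (b := 2) (mask := 3) l rfl (fun _ _ => rfl) (fun _ => rfl) rs hrs
    (fun i hi x hx => (allB_iff _ _).1 ((allB_iff _ _).1 flAll i hi) x hx)
    (fun i hi => (allB_iff _ _).1 lcAll i hi)
    (by decide +kernel) (by decide +kernel)

end Cfsg.Agent.Lib.Compute.Schur2.RuM.T
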